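import Cfsg.Agent.SylowToolkit.Counting
import Cfsg.Agent.SylowToolkit.Transfer
import Cfsg.Agent.SylowToolkit.PermRep
import Cfsg.Agent.SylowToolkit.Faithful
import Mathlib

/-!
# No simple group has order `1004913 = 3^3 * 7 * 13 * 409`
-/

set_option autoImplicit false
set_option linter.style.haveILetI false

namespace CfsgLib.Card1004913

open CfsgLib.SylowToolkit Subgroup
open scoped Pointwise

theorem not_dvd_factorial_of_lt {q n : ℕ} (hq : q.Prime) (h : n < q) : ¬ q ∣ n.factorial := fun hd => by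
  have := hq.dvd_factorial.mp hd; omega

variable {G : Type*} [Group G] [Finite G] [IsSimpleGroup G] (h : Nat.card G = 1004913)

include h

theorem not_comm' : ¬ IsMulCommutative G := not_isMulCommutative_of_not_prime (by rw [h]; norm_num)

theorem index_ge {H : Subgroup G} (hH : H ≠ ⊤) : 409 ≤ H.index := by
  by_contra hlt
  exact not_dvd_factorial_of_lt (by norm_num) (Nat.lt_of_not_le hlt)
    (dvd_trans (by rw [h]; norm_num) (card_dvd_factorial_index hH))

theorem card_le_2457 {H : Subgroup G} (hH : H ≠ ⊤) : Nat.card H ≤ 2457 := by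
  have h1 := H.card_mul_index
  have h2 := index_ge h hH
  rw [h] at h1
  nlinarith

theorem index_normalizer_ge {p : ℕ} [Fact p.Prime] (hd : p ∣ Nat.card G) :
    409 ≤ Nat.card (Sylow p G) := by
  obtain ⟨P⟩ := (inferInstance : Nonempty (Sylow p G))
  rw [P.card_eq_index_normalizer]
  exact index_ge h (normalizer_sylow_ne_top (not_comm' h) hd P)

theorem n_seven [Fact (Nat.Prime 7)] : Nat.card (Sylow 7 G) = 47853 := by
  have hmem := card_sylow_mem_candidates (p := 7) (G := G) (k := 1) (m := 143559) (by rw [h]; norm_num) (by norm_num)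
  have hge := index_normalizer_ge h (p := 7) (by rw [h]; norm_num)
  obtain ⟨hd, hmod⟩ := Finset.mem_filter.mp hmem
  have hd' := Nat.dvd_of_mem_divisors hd
  have hle := Nat.le_of_dvd (by norm_num) hd'
  obtain ⟨c, hc⟩ := hd'
  have hc' : c ≤ 351 := by nlinarith
  have key : ∀ c ≤ 351, c ∣ 143559 → 143559 / c % 7 = 1 → 409 ≤ 143559 / c → 143559 / c = 47853 := by decide +kernel
  have hdiv : 143559 / c = Nat.card (Sylow 7 G) := by
    rw [hc]
    exact Nat.mul_div_cancel _ (by rcases c with _ | c <;> simp_all)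
  rw [← hdiv]
  exact key c hc' ⟨_, by rw [hc, mul_comm]⟩ (by rw [hdiv]; exact hmod) (by rw [hdiv]; exact hge)

theorem n_thirteen [Fact (Nat.Prime 13)] : Nat.card (Sylow 13 G) = 25767 := by
  have hmem := card_sylow_mem_candidates (p := 13) (G := G) (k := 1) (m := 77301) (by rw [h]; norm_num) (by norm_num)
  have hge := index_normalizer_ge h (p := 13) (by rw [h]; norm_num)
  obtain ⟨hd, hmod⟩ := Finset.mem_filter.mp hmem
  have hd' := Nat.dvd_of_mem_divisors hd
  obtain ⟨c, hc⟩ := hd'
  have hc' : c ≤ 189 := by nlinarith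
  have key : ∀ c ≤ 189, c ∣ 77301 → 77301 / c % 13 = 1 → 409 ≤ 77301 / c → 77301 / c = 25767 := by decide +kernel
  have hdiv : 77301 / c = Nat.card (Sylow 13 G) := by
    rw [hc]
    exact Nat.mul_div_cancel _ (by rcases c with _ | c <;> simp_all)
  rw [← hdiv]
  exact key c hc' ⟨_, by rw [hc, mul_comm]⟩ (by rw [hdiv]; exact hmod) (by rw [hdiv]; exact hge)

theorem n_fourohnine [Fact (Nat.Prime 409)] : Nat.card (Sylow 409 G) = 819 := by
  have hmem := card_sylow_mem_candidates (p := 409) (G := G) (k := 1) (m := 2457) (by rw [h]; norm_num) (by norm_num)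
  have key : ∀ n ≤ 2457, n ∣ 2457 → n % 409 = 1 → 409 ≤ n → n = 819 := by decide +kernel
  obtain ⟨hd, hmod⟩ := Finset.mem_filter.mp hmem
  exact key _ (Nat.le_of_dvd (by norm_num) (Nat.dvd_of_mem_divisors hd)) (Nat.dvd_of_mem_divisors hd) hmod
    (index_normalizer_ge h (by rw [h]; norm_num))

/-- At most 74438 nontrivial elements are left. -/
theorem card_threeElements : {g : G | g ≠ 1 ∧ g ^ 27 = 1}.ncard ≤ 74438 := by
  classical
  haveI : Fact (Nat.Prime 7) := ⟨by norm_num⟩
  haveI : Fact (Nat.Prime 13) := ⟨by norm_num⟩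
  haveI : Fact (Nat.Prime 409) := ⟨by norm_num⟩
  set A := {g : G | g ≠ 1 ∧ g ^ 27 = 1}
  have e7 := card_orderOf_eq_prime (G := G) (p := 7) (m := 143559) (by rw [h]) (by norm_num)
  have e13 := card_orderOf_eq_prime (G := G) (p := 13) (m := 77301) (by rw [h]) (by norm_num)
  have e409 := card_orderOf_eq_prime (G := G) (p := 409) (m := 2457) (by rw [h]) (by norm_num)
  rw [n_seven h] at e7
  rw [n_thirteen h] at e13
  rw [n_fourohnine h] at e409
  let B : ℕ → Set G := fun q => {g | orderOf g = q}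
  have hB : ∀ q, Nat.card {g : G // orderOf g = q} = (B q).ncard := fun q => rfl
  rw [hB] at e7 e13 e409
  have hAB : ∀ q, q.Prime → ¬ q ∣ 27 → Disjoint A (B q) := fun q hq hq' => Set.disjoint_left.mpr fun g hg hgB =>
    hq' ((show orderOf g = q from hgB) ▸ orderOf_dvd_of_pow_eq_one hg.2)
  have hBB : ∀ q r, q ≠ r → Disjoint (B q) (B r) := fun q r hne => Set.disjoint_left.mpr fun g h1 h2 =>
    hne ((show orderOf g = q from h1).symm.trans h2)
  have hle : (A ∪ (B 7 ∪ (B 13 ∪ B 409))).ncard ≤ ({1}ᶜ : Set G).ncard := by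
    refine Set.ncard_le_ncard fun g hg hg1 => ?_
    rw [Set.mem_singleton_iff] at hg1
    subst hg1
    rcases hg with ⟨h1, -⟩ | h1 | h1 | h1
    · exact h1 rfl
    all_goals simp [B] at h1
  rw [Set.ncard_union_eq, Set.ncard_union_eq, Set.ncard_union_eq, e7, e13, e409, Set.ncard_compl,
    Set.ncard_singleton, h] at hle
  · omega
  · exact hBB 13 409 (by norm_num)
  · exact (hBB 7 13 (by norm_num)).union_right (hBB 7 409 (by norm_num))
  · exact (hAB 7 (by norm_num) (by norm_num)).union_right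
      ((hAB 13 (by norm_num) (by norm_num)).union_right (hAB 409 (by norm_num) (by norm_num)))

theorem centralizer_prime {q : ℕ} [Fact q.Prime] (hq : q = 7 ∨ q = 13 ∨ q = 409) (P : Sylow q G) :
    centralizer ((P : Subgroup G) : Set G) = (P : Subgroup G) := by
  obtain ⟨m, hG, hm, n, hn, hN⟩ : ∃ m, Nat.card G = q * m ∧ ¬ q ∣ m ∧ ∃ n, Nat.card (Sylow q G) = n ∧
      (m = 3 * n) := by
    rcases hq with rfl | rfl | rfl
    · exact ⟨143559, h.trans (by norm_num), by norm_num, _, n_seven h, by norm_num⟩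
    · exact ⟨77301, h.trans (by norm_num), by norm_num, _, n_thirteen h, by norm_num⟩
    · exact ⟨2457, h.trans (by norm_num), by norm_num, _, n_fourohnine h, by norm_num⟩
  have hP : Nat.card (P : Subgroup G) = q := by
    rw [card_sylow_subgroup_eq (k := 1) (m := m) (by rw [pow_one, hG]) hm P, pow_one]
  have hN3 : Nat.card (normalizer ((P : Subgroup G) : Set G)) = 3 * q := by
    have h1 := card_normalizer_mul P
    rw [hn, hG, hN] at h1
    have hn0 : 0 < n := hn ▸ Nat.card_pos
    exact Nat.eq_of_mul_eq_mul_right hn0 (h1.trans (by ring))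
  have hcyc : IsCyclic (P : Subgroup G) := isCyclic_of_prime_card hP
  have hle : (P : Subgroup G) ≤ centralizer ((P : Subgroup G) : Set G) := fun a ha =>
    mem_centralizer_iff.mpr fun b hb => congrArg Subtype.val (hcyc.commGroup.mul_comm ⟨b, hb⟩ ⟨a, ha⟩)
  refine (eq_of_le_of_card_ge hle ?_).symm
  have hnle := not_normalizer_le_centralizer (not_comm' h) (hP ▸ card_subgroup_dvd_card (P : Subgroup G)) P
  have h1 := card_dvd_of_le (centralizer_le_normalizer ((P : Subgroup G) : Set G))
  have h2 := card_dvd_of_le hle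
  rw [hN3] at h1
  rw [hP] at h2 ⊢
  obtain ⟨j, hj⟩ := h2
  rw [hj, mul_comm 3 q] at h1
  rcases (Nat.dvd_prime Nat.prime_three).mp (Nat.dvd_of_mul_dvd_mul_left (Fact.out : q.Prime).pos h1) with rfl | rfl
  · rw [hj, mul_one]
  · exact absurd (eq_of_le_of_card_ge (centralizer_le_normalizer _) (by rw [hj, hN3, mul_comm])).ge hnle

theorem centralizer_isPGroup {x : G} (hx : x ^ 27 = 1) (hx1 : x ≠ 1) :
    IsPGroup 3 (centralizer ({x} : Set G)) := by
  set C := centralizer ({x} : Set G)
  have hd : Nat.card C ∣ 3 ^ 3 * (7 * (13 * 409)) := by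
    rw [show 3 ^ 3 * (7 * (13 * 409)) = 1004913 by norm_num, ← h]; exact card_subgroup_dvd_card C
  have hno : ∀ q, q = 7 ∨ q = 13 ∨ q = 409 → ¬ q ∣ Nat.card C := by
    intro q hq hdvd
    haveI : Fact q.Prime := ⟨by rcases hq with rfl | rfl | rfl <;> norm_num⟩
    obtain ⟨⟨d, hdC⟩, hdq⟩ := exists_prime_orderOf_dvd_card' (G := C) q hdvd
    rw [orderOf_mk] at hdq
    obtain ⟨P, hP⟩ := (IsPGroup.of_card (n := 1) (show Nat.card (zpowers d) = q ^ 1 by
      rw [Nat.card_zpowers, hdq, pow_one])).exists_le_sylow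
    have hP' : Nat.card (P : Subgroup G) = q := by
      rcases hq with rfl | rfl | rfl
      · rw [card_sylow_subgroup_eq (k := 1) (m := 143559) (h.trans (by norm_num)) (by norm_num) P, pow_one]
      · rw [card_sylow_subgroup_eq (k := 1) (m := 77301) (h.trans (by norm_num)) (by norm_num) P, pow_one]
      · rw [card_sylow_subgroup_eq (k := 1) (m := 2457) (h.trans (by norm_num)) (by norm_num) P, pow_one]
    have he : zpowers d = (P : Subgroup G) := eq_of_le_of_card_ge hP (by rw [hP', Nat.card_zpowers, hdq])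
    have hxP : x ∈ (P : Subgroup G) := by
      rw [← centralizer_prime h hq P, ← he, mem_centralizer_iff]
      intro y hy
      obtain ⟨j, rfl⟩ := mem_zpowers_iff.mp hy
      exact ((show Commute d x from mem_centralizer_singleton_iff.mp hdC).zpow_left j).eq
    have h1 := Subgroup.orderOf_dvd_natCard (s := (P : Subgroup G)) hxP
    rw [hP'] at h1
    have h27 := orderOf_dvd_of_pow_eq_one hx
    have : orderOf x ∣ Nat.gcd q 27 := Nat.dvd_gcd h1 h27
    rw [show Nat.gcd q 27 = 1 by rcases hq with rfl | rfl | rfl <;> norm_num] at this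
    exact hx1 (orderOf_eq_one_iff.mp (Nat.dvd_one.mp this))
  have hco : Nat.Coprime (Nat.card C) (7 * (13 * 409)) :=
    Nat.Coprime.mul_right ((Nat.Prime.coprime_iff_not_dvd (by norm_num)).mpr (hno 7 (.inl rfl))).symm
      (Nat.Coprime.mul_right ((Nat.Prime.coprime_iff_not_dvd (by norm_num)).mpr (hno 13 (.inr (.inl rfl)))).symm
        ((Nat.Prime.coprime_iff_not_dvd (by norm_num)).mpr (hno 409 (.inr (.inr rfl)))).symm)
  obtain ⟨k, -, hk⟩ := (Nat.dvd_prime_pow Nat.prime_three).mp (hco.dvd_of_dvd_mul_right hd)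
  exact IsPGroup.of_card hk

theorem false_of_card : False := by
  classical
  haveI : Fact (Nat.Prime 7) := ⟨by norm_num⟩
  haveI : Fact (Nat.Prime 13) := ⟨by norm_num⟩
  haveI : Fact (Nat.Prime 409) := ⟨by norm_num⟩
  have hc := not_comm' h
  set A := {g : G | g ≠ 1 ∧ g ^ 27 = 1} with hA
  have hT27 : ∀ T : Sylow 3 G, Nat.card (T : Subgroup G) = 27 := fun T => by
    rw [card_sylow_subgroup_eq (k := 3) (m := 37219) (by rw [h]; norm_num) (by norm_num) T]; norm_num
  -- the class of a 3-element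
  have hclass : ∀ x ∈ A, 37219 ≤ {g | IsConj x g}.ncard ∧
      ({g | IsConj x g}.ncard = 37219 → Nat.card (centralizer ({x} : Set G)) = 27) ∧
      Disjoint {g | IsConj x g} {g | IsConj x⁻¹ g} ∧ {g | IsConj x g} ⊆ A ∧ {g | IsConj x⁻¹ g} ⊆ A := by
    intro x hx
    have hmul := (centralizer ({x} : Set G)).card_mul_index
    have h2 : (MulAction.stabilizer (ConjAct G) x).index = (centralizer ({x} : Set G)).index := by
      rw [ConjAct.stabilizer_eq_centralizer]
      rfl
    rw [MulAction.index_stabilizer, ConjAct.orbit_eq_carrier_conjClasses] at h2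
    have h3 : (ConjClasses.mk x).carrier = {g | IsConj x g} := by
      ext g
      rw [ConjClasses.mem_carrier_iff_mk_eq, ConjClasses.mk_eq_mk_iff_isConj]
      exact isConj_comm
    rw [h3] at h2
    obtain ⟨T, hT⟩ := (centralizer_isPGroup h hx.2 hx.1).exists_le_sylow
    have hle := card_le_of_le hT
    rw [hT27 T] at hle
    rw [h, ← h2] at hmul
    have hsub : ∀ y ∈ A, {g | IsConj y g} ⊆ A := by
      rintro y ⟨hy1, hy⟩ g hg
      obtain ⟨c, rfl⟩ := isConj_iff.mp hg
      exact ⟨fun e => hy1 (conj_eq_one_iff.mp e), by rw [conj_pow, hy, mul_one, mul_inv_cancel]⟩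
    refine ⟨by nlinarith, fun e => by rw [e] at hmul; omega, ?_, hsub x hx,
      hsub x⁻¹ ⟨inv_ne_one.mpr hx.1, by rw [inv_pow, hx.2, inv_one]⟩⟩
    rw [Set.disjoint_left]
    intro g hg hg'
    obtain ⟨c, hcx⟩ := isConj_iff.mp (IsConj.trans hg (IsConj.symm hg'))
    -- `c` inverts `x`, so `c ^ 2` centralizes it; `c` has odd order
    have hodd : Odd (orderOf c) := by
      obtain ⟨k, hk⟩ : orderOf c ∣ 1004913 := h ▸ orderOf_dvd_natCard c
      exact Nat.Odd.of_mul_left (hk ▸ (by decide : Odd 1004913))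
    obtain ⟨j, hj⟩ := hodd
    have hc2 : Commute (c ^ 2) x := by
      show c ^ 2 * x = x * c ^ 2
      rw [sq, mul_assoc]
      have e1 : c * x = x⁻¹ * c := mul_inv_eq_iff_eq_mul.mp hcx
      have e2 : c * x⁻¹ = x * c := by
        have := congrArg (·⁻¹) hcx
        simp only [mul_inv_rev, inv_inv] at this
        rw [← mul_inv_eq_iff_eq_mul, mul_assoc]
        exact this
      rw [e1, ← mul_assoc, e2, mul_assoc]
    have hcc : c = (c ^ 2) ^ (j + 1) := by
      rw [← pow_mul, show 2 * (j + 1) = orderOf c + 1 by omega, pow_succ, pow_orderOf_eq_one, one_mul]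
    have hcomm : Commute c x := hcc ▸ hc2.pow_left (j + 1)
    rw [hcomm.eq, mul_inv_cancel_right] at hcx
    have hx2 : orderOf x ∣ 2 := orderOf_dvd_of_pow_eq_one (by rw [sq]; nth_rw 2 [hcx]; exact mul_inv_cancel x)
    have : orderOf x ∣ Nat.gcd 2 27 := Nat.dvd_gcd hx2 (orderOf_dvd_of_pow_eq_one hx.2)
    exact hx.1 (orderOf_eq_one_iff.mp (Nat.dvd_one.mp (by simpa using this)))
  have hcard := card_threeElements h
  have hcent : ∀ x ∈ A, Nat.card (centralizer ({x} : Set G)) = 27 := by
    intro x hx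
    obtain ⟨h1, h27, hdisj, hs1, hs2⟩ := hclass x hx
    have hx' : x⁻¹ ∈ A := ⟨inv_ne_one.mpr hx.1, by rw [inv_pow, hx.2, inv_one]⟩
    have h1' := (hclass _ hx').1
    have := Set.ncard_le_ncard (Set.union_subset hs1 hs2)
    rw [Set.ncard_union_eq hdisj] at this
    exact h27 (by rw [hA] at *; omega)
  -- an element of order 3 normalizing a Sylow 409-subgroup fixes 9 and at most 3 of them
  obtain ⟨P⟩ := (inferInstance : Nonempty (Sylow 409 G))
  have hn := n_fourohnine h
  have hP : Nat.card (P : Subgroup G) = 409 := by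
    rw [card_sylow_subgroup_eq (k := 1) (m := 2457) (h.trans (by norm_num)) (by norm_num) P, pow_one]
  have hmul := card_normalizer_mul P
  rw [hn, h] at hmul
  obtain ⟨⟨x, hxN⟩, hx3⟩ := exists_prime_orderOf_dvd_card' (G := normalizer ((P : Subgroup G) : Set G)) 3 (by
    rw [show Nat.card (normalizer ((P : Subgroup G) : Set G)) = 1227 by omega]; norm_num)
  rw [orderOf_mk] at hx3
  have hx1 : x ≠ 1 := fun e => by rw [e, orderOf_one] at hx3; norm_num at hx3
  have hxA : x ∈ A := ⟨hx1, orderOf_dvd_iff_pow_eq_one.mp (by rw [hx3]; norm_num)⟩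
  have hC27 := hcent x hxA
  have hfree : ∀ u ∈ (P : Subgroup G), ∀ Q : Sylow 409 G, Q ≠ P → u • Q = Q → u = 1 := by
    intro u hu Q hQ huQ
    by_contra hu1
    have e1 : zpowers u = (P : Subgroup G) := eq_of_le_of_card_ge (zpowers_le.mpr hu) (by
      have h1 := Subgroup.orderOf_dvd_natCard (s := (P : Subgroup G)) hu
      rw [hP, Nat.dvd_prime (by norm_num)] at h1
      rw [hP, Nat.card_zpowers, h1.resolve_left fun e => hu1 (orderOf_eq_one_iff.mp e)])
    have huQ' := mem_of_smul_eq (IsPGroup.to_le P.isPGroup' (zpowers_le.mpr hu)) huQ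
    exact hQ (Sylow.ext (eq_of_le_of_card_ge (e1.symm.le.trans (zpowers_le.mpr huQ'))
      (by rw [card_sylow_subgroup_congr Q P])).symm)
  have hxu : ∀ u ∈ (P : Subgroup G), x * u = u * x → u = 1 := by
    intro u hu hc'
    by_contra hu1
    have e1 : zpowers u = (P : Subgroup G) := eq_of_le_of_card_ge (zpowers_le.mpr hu) (by
      have h1 := Subgroup.orderOf_dvd_natCard (s := (P : Subgroup G)) hu
      rw [hP, Nat.dvd_prime (by norm_num)] at h1
      rw [hP, Nat.card_zpowers, h1.resolve_left fun e => hu1 (orderOf_eq_one_iff.mp e)])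
    have hxP : x ∈ (P : Subgroup G) := by
      rw [← centralizer_prime h (.inr (.inr rfl)) P, ← e1, mem_centralizer_iff]
      intro y hy
      obtain ⟨j, rfl⟩ := mem_zpowers_iff.mp hy
      exact ((show Commute u x from hc'.symm).zpow_left j).eq
    have h1 := Subgroup.orderOf_dvd_natCard (s := (P : Subgroup G)) hxP
    rw [hx3, hP] at h1
    norm_num at h1
  -- at most three fixed points
  let Fix : Type _ := {Q : Sylow 409 G // x • Q = Q ∧ Q ≠ P}
  let f : ↥(P : Subgroup G) × Fix → {Q : Sylow 409 G // Q ≠ P} := fun a => ⟨(a.1 : G) • a.2.1, fun e => a.2.2.2 (by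
    have := congrArg ((a.1 : G)⁻¹ • ·) e
    simp only [inv_smul_smul] at this
    rw [this]
    exact Sylow.smul_eq_iff_mem_normalizer.mpr (le_normalizer (inv_mem a.1.2)))⟩
  have hf : Function.Injective f := by
    rintro ⟨u, Q, hQ, hQP⟩ ⟨v, Q', hQ', hQP'⟩ e
    have e' : (u : G) • Q = (v : G) • Q' := congrArg Subtype.val e
    set w := (v : G)⁻¹ * u with hw
    have hwP : w ∈ (P : Subgroup G) := mul_mem (inv_mem v.2) u.2
    have hwQ : w • Q = Q' := by rw [hw, mul_smul, e', inv_smul_smul]
    have hxw : (x * w * x⁻¹) • Q = Q' := by rw [mul_smul, mul_smul, inv_smul_eq_iff.mpr hQ.symm, hwQ, hQ']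
    have hmem : x * w * x⁻¹ ∈ (P : Subgroup G) := (mem_normalizer_iff.mp hxN w).mp hwP
    have h1 := hfree _ (mul_mem (inv_mem hwP) hmem) Q hQP (by rw [mul_smul, hxw, inv_smul_eq_iff, hwQ])
    have hw1 : w = 1 := hxu w hwP (mul_inv_eq_iff_eq_mul.mp (inv_mul_eq_one.mp h1).symm)
    obtain rfl : u = v := Subtype.ext (inv_mul_eq_one.mp hw1).symm
    obtain rfl : Q = Q' := by rw [← hwQ, hw1, one_smul]
    rfl
  have hle := Nat.card_le_card_of_injective f hf
  haveI := Fintype.ofFinite (Sylow 409 G)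
  rw [Nat.card_prod, hP, Nat.card_eq_fintype_card (α := {Q : Sylow 409 G // Q ≠ P}), Fintype.card_subtype_compl,
    Fintype.card_subtype_eq, ← Nat.card_eq_fintype_card, hn] at hle
  -- at least nine
  let f' : centralizer ({x} : Set G) → Option Fix := fun c =>
    if hcP : (c : G) • P = P then none else some ⟨(c : G) • P, by
      rw [← mul_smul, ← mem_centralizer_singleton_iff.mp c.2, mul_smul,
        Sylow.smul_eq_iff_mem_normalizer.mpr hxN], hcP⟩
  set Cx := centralizer ({x} : Set G) ⊓ normalizer ((P : Subgroup G) : Set G) with hCx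
  have hCx3 : Nat.card Cx ≤ 3 := by
    have h1 := card_dvd_of_le (inf_le_left : Cx ≤ _)
    have h2 := card_dvd_of_le (inf_le_right : Cx ≤ normalizer ((P : Subgroup G) : Set G))
    rw [hC27] at h1
    rw [show Nat.card (normalizer ((P : Subgroup G) : Set G)) = 1227 by omega] at h2
    exact Nat.le_of_dvd (by norm_num) ((Nat.dvd_gcd h1 h2).trans (by norm_num))
  haveI : Finite Fix := Subtype.finite
  have hkey : ∀ a b, f' a = f' b → (a : G) • P = (b : G) • P := by
    intro a b e
    simp only [f'] at e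
    split_ifs at e with h1 h2 h2
    · rw [h1, h2]
    · exact congrArg Subtype.val (Option.some.inj e)
  have hfib : Nat.card (centralizer ({x} : Set G)) ≤ Nat.card (Option Fix × Cx) := by
    let r : Option Fix → centralizer ({x} : Set G) := Function.invFun f'
    refine Nat.card_le_card_of_injective (fun c => (f' c, (⟨((r (f' c))⁻¹ * c : centralizer ({x} : Set G)), ?_⟩ : Cx))) ?_
    · have hr : f' (r (f' c)) = f' c := Function.invFun_eq ⟨c, rfl⟩
      refine mem_inf.mpr ⟨SetLike.coe_mem _, Sylow.smul_eq_iff_mem_normalizer.mp ?_⟩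
      have heq : ((r (f' c) : centralizer ({x} : Set G)) : G) • P = (c : G) • P := hkey _ _ hr
      rw [Subgroup.coe_mul, Subgroup.coe_inv, mul_smul, inv_smul_eq_iff, heq]
    · intro a b e
      simp only [Prod.mk.injEq] at e
      have e2 := congrArg Subtype.val e.2
      simp only [Subgroup.coe_mul, Subgroup.coe_inv] at e2
      rw [e.1] at e2
      exact Subtype.ext (mul_left_cancel e2)
  rw [hC27, Nat.card_prod, Finite.card_option] at hfib
  have h4 := Nat.mul_le_mul_left (Nat.card Fix + 1) hCx3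
  omega

end CfsgLib.Card1004913
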